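import Cfsg.Agent.Lib.TC.Data.HeS1.Arr
import Cfsg.Agent.Lib.TC.Data.HeS1.K0
import Cfsg.Agent.Lib.TC.Data.HeS1.P0
import Cfsg.Agent.Lib.TC.Data.HeW

set_option autoImplicit false

namespace Cfsg.Agent.Lib.TC.Data.HeS1

open Cfsg.Agent.Lib.TC

theorem doneK : Done Fk 1792 := by
  have h0 := Done.zero Fk
  have h1 : Done Fk 1792 := Done.step h0 K0_ok rfl
  exact h1

theorem doneP : Done Fp 240 := by
  have h0 := Done.zero Fp
  have h1 : Done Fp 240 := Done.step h0 P0_ok rfl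
  exact h1

noncomputable def invp (j : ℕ) : ℕ := List.getD [0,1,2,3,4,5] j 0

theorem hsig : ∀ j, j < ([0,2,3,4,5,6] : List ℕ).length → ([0,2,3,4,5,6] : List ℕ).getD j 0 < G.He.sys.ng ∧ invp j < ([0,2,3,4,5,6] : List ℕ).length ∧ ([0,2,3,4,5,6] : List ℕ).getD (invp j) 0 = G.He.sys.inv (([0,2,3,4,5,6] : List ℕ).getD j 0) := by decide +kernel

theorem hlett : ∀ w ∈ words, ∀ g ∈ w, g < 7 := by decide +kernel

theorem hlet2 : ∀ w ∈ words, ∀ g ∈ w, g < ([0,2,3,4,5,6] : List ℕ).length := by decide +kernel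

theorem hrelW : ∀ w ∈ words.take 25, isPseudo ([0,2,3,4,5,6] : List ℕ).length invp w = true ∨ (w.map fun j => ([0,2,3,4,5,6] : List ℕ).getD j 0) ∈ G.He.relWords ∨ (w.map fun j => ([0,2,3,4,5,6] : List ℕ).getD j 0) = Cfsg.Agent.Lib.TC.Data.HeW.gw := by decide +kernel

theorem hsubW : ∀ w ∈ words.drop 25, ∃ g ∈ ([0,3,4,5,6] : List ℕ), (w.map fun j => ([0,2,3,4,5,6] : List ℕ).getD j 0) = [g] := by decide +kernel

theorem hnm0 : aN 0 = 0 := by decide +kernel

theorem hnrel : cert.nrel ≤ cert.nW := by decide +kernel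

theorem hnW : cert.nW = words.length := by decide +kernel

theorem idx : (G.He.sys.letL [0,3,4,5,6]).relIndex (G.He.sys.letL [0,2,3,4,5,6]) ≠ 0 ∧ (G.He.sys.letL [0,3,4,5,6]).relIndex (G.He.sys.letL [0,2,3,4,5,6]) ≤ 240 :=
  G.He.sys.relIndex_letL' [0,2,3,4,5,6] [0,3,4,5,6] invp hsig cert words rfl rfl rfl hnW hnrel hlett hlet2 (fun w hw => by
    rcases hrelW w hw with h | h | h
    · exact Or.inl h
    · obtain ⟨r, hr, h2⟩ := G.He.of_mem_relWords h
      right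
      rw [← h2, G.He.sys.evalWord_encW]
      exact PresentedGroup.one_of_mem hr
    · right
      rw [h]
      exact Cfsg.Agent.Lib.TC.Data.HeW.triv) hsubW
    (fun k hk => guard_zero 1792 _ k hk) doneK 240 aN tT (by decide) hnm0 doneP

end Cfsg.Agent.Lib.TC.Data.HeS1
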